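import Cfsg.Agent.Lib.PrimeIndex.Twist
import Mathlib.NumberTheory.NumberField.Cyclotomic.Basic

/-!
Coordinates of algebraic integers in the field of `p`-th roots of unity, and a pigeonhole lemma.
-/

set_option autoImplicit false

namespace Cfsg.Agent.Lib.CharArc

open Cfsg.Agent.Lib.PrimeIndex

variable {p : ℕ} [hp : Fact p.Prime]

/-- An integral rational combination of `p`-th roots of unity is an integral combination. -/
theorem exists_int_coords (c : ZMod p → ℚ) (h : IsIntegral ℤ (fEval c)) :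
    ∃ d : ZMod p → ℤ, fEval c = fEval (fun r => (d r : ℚ)) := by
  classical
  set ζ : ℂ := ZMod.stdAddChar (1 : ZMod p) with hζdef
  have hζ : IsPrimitiveRoot ζ p := isPrimitiveRoot_stdAddChar
  haveI : NeZero p := ⟨hp.out.ne_zero⟩
  let K := IntermediateField.adjoin ℚ ({ζ} : Set ℂ)
  haveI : IsCyclotomicExtension {p} ℚ K := by
    change IsCyclotomicExtension {p} ℚ (IntermediateField.adjoin ℚ ({ζ} : Set ℂ)).toSubalgebra
    rw [IntermediateField.adjoin_simple_toSubalgebra_of_isAlgebraic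
      ((hζ.isIntegral hp.out.pos).tower_top (A := ℚ)).isAlgebraic]
    exact hζ.adjoin_isCyclotomicExtension ℚ
  let z : K := ⟨ζ, IntermediateField.mem_adjoin_simple_self ℚ ζ⟩
  have hz : IsPrimitiveRoot z p :=
    IsPrimitiveRoot.of_map_of_injective (f := algebraMap K ℂ) hζ (algebraMap K ℂ).injective
  let y : K := ∑ r, c r • z ^ r.val
  have hy : algebraMap K ℂ y = fEval c := by
    simp only [y, map_sum, fEval]
    refine Finset.sum_congr rfl fun r _ => ?_
    rw [stdAddChar_eq_pow r, Algebra.smul_def, map_mul, map_pow, eq_ratCast, map_ratCast]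
    rfl
  have hyint : IsIntegral ℤ y :=
    (isIntegral_algebraMap_iff (A := K) (B := ℂ) (algebraMap K ℂ).injective).mp (hy ▸ h)
  haveI := IsCyclotomicExtension.Rat.isIntegralClosure_adjoin_singleton_of_prime (p := p) (K := K) hz
  obtain ⟨w, hw⟩ :=
    (IsIntegralClosure.isIntegral_iff (A := Algebra.adjoin ℤ ({z} : Set K))).mp hyint
  have hwmem : y ∈ Algebra.adjoin ℤ ({z} : Set K) := hw ▸ w.2
  rw [Algebra.adjoin_singleton_eq_range_aeval] at hwmem
  obtain ⟨P, hP⟩ := hwmem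
  refine ⟨fun r => ∑ m ∈ Finset.range (P.natDegree + 1), if ((m : ℕ) : ZMod p) = r then P.coeff m else 0,
    ?_⟩
  rw [← hy, ← hP]
  show algebraMap K ℂ (Polynomial.aeval z P) = _
  rw [Polynomial.aeval_eq_sum_range, map_sum, fEval]
  push_cast
  simp only [Finset.sum_mul]
  rw [Finset.sum_comm]
  refine Finset.sum_congr rfl fun m _ => ?_
  rw [Finset.sum_eq_single ((m : ℕ) : ZMod p)]
  · rw [if_pos rfl, ← nsmul_one m, AddChar.map_nsmul_eq_pow]
    push_cast
    rw [zsmul_eq_mul]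
    rfl
  · intro r _ hr
    rw [if_neg (Ne.symm hr)]
    simp
  · exact fun hm => absurd (Finset.mem_univ _) hm

theorem norm_sub_one_lt {t : ℝ} (ht : |t| < 1 / 6) :
    ‖Complex.exp (2 * Real.pi * Complex.I * t) - 1‖ < 1 := by
  set θ := 2 * Real.pi * t with hθ
  rw [show 2 * (Real.pi : ℂ) * Complex.I * t = (θ : ℂ) * Complex.I by rw [hθ]; push_cast; ring]
  have hθb : |θ| < Real.pi / 3 := by
    rw [hθ, abs_mul, abs_of_pos (by positivity : (0 : ℝ) < 2 * Real.pi)]
    have := Real.pi_pos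
    nlinarith
  have hcos : 1 / 2 < Real.cos θ := by
    rw [← Real.cos_pi_div_three, ← Real.cos_abs θ]
    exact Real.cos_lt_cos_of_nonneg_of_le_pi (abs_nonneg θ) (by linarith [Real.pi_pos]) hθb
  have h : Complex.normSq (Complex.exp (θ * Complex.I) - 1) < 1 := by
    rw [Complex.normSq_sub, Complex.normSq_eq_norm_sq, Complex.norm_exp_ofReal_mul_I]
    simp only [map_one, one_pow, mul_one, Complex.exp_ofReal_mul_I_re]
    linarith
  rw [Complex.normSq_eq_norm_sq] at h
  nlinarith [norm_nonneg (Complex.exp (θ * Complex.I) - 1)]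

/-- Dirichlet's pigeonhole argument: a common multiple bringing few residues near `0`. -/
theorem exists_mul_close (S : Finset (ZMod p)) {r₀ : ZMod p} (hr₀ : r₀ ∈ S)
    (h : 6 ^ (S.card - 1) < p) :
    ∃ j : ZMod p, j ≠ 0 ∧ ∀ r ∈ S, ‖ZMod.stdAddChar (j * r) - ZMod.stdAddChar (j * r₀)‖ < 1 := by
  classical
  let T : Finset (ZMod p) := S.erase r₀
  let Φ : ZMod p → (T → Fin 6) := fun j r =>
    ⟨6 * (j * ((r : ZMod p) - r₀)).val / p, Nat.div_lt_of_lt_mul (by
      rw [mul_comm p 6]; exact Nat.mul_lt_mul_of_pos_left (ZMod.val_lt _) (by norm_num))⟩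
  obtain ⟨j₁, j₂, hne, heq⟩ := Fintype.exists_ne_map_eq_of_card_lt Φ (by
    rw [Fintype.card_fun, Fintype.card_fin, Fintype.card_coe, show T.card = _ from Finset.card_erase_of_mem hr₀, ZMod.card]
    exact h)
  refine ⟨j₁ - j₂, sub_ne_zero.mpr hne, fun r hr => ?_⟩
  rcases eq_or_ne r r₀ with rfl | hne'
  · rw [sub_self, norm_zero]; exact one_pos
  have hbox := congrArg Fin.val (congrFun heq ⟨r, Finset.mem_erase.mpr ⟨hne', hr⟩⟩)
  simp only [Φ] at hbox
  set a := (j₁ * (r - r₀)).val with ha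
  set b := (j₂ * (r - r₀)).val with hb
  have hd : (j₁ - j₂) * (r - r₀) = (((a : ℤ) - b : ℤ) : ZMod p) := by
    rw [sub_mul, ha, hb]; simp
  have e : (j₁ - j₂) * r = (j₁ - j₂) * (r - r₀) + (j₁ - j₂) * r₀ := by ring
  have hnorm : ‖ZMod.stdAddChar ((j₁ - j₂) * r₀)‖ = 1 := by
    rw [AddChar.norm_apply]
  rw [e, AddChar.map_add_eq_mul, show ∀ u v : ℂ, u * v - v = (u - 1) * v from fun u v => by ring,
    norm_mul, hnorm, mul_one, hd, ZMod.stdAddChar_coe]
  have hp0 : (0 : ℝ) < p := by exact_mod_cast hp.out.pos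
  have hlt : |(((a : ℤ) - b : ℤ) : ℝ) / p| < 1 / 6 := by
    have h1 := Nat.div_add_mod (6 * a) p
    have h2 := Nat.div_add_mod (6 * b) p
    have h3 := Nat.mod_lt (6 * a) hp.out.pos
    have h4 := Nat.mod_lt (6 * b) hp.out.pos
    rw [hbox] at h1
    have hi : |(((a : ℤ) - b : ℤ))| * 6 < p := by
      rcases abs_cases ((a : ℤ) - b) with ⟨hab, _⟩ | ⟨hab, _⟩ <;> rw [hab] <;> omega
    rw [abs_div, abs_of_pos hp0, div_lt_iff₀ hp0]
    have hiR : |(((a : ℤ) - b : ℤ) : ℝ)| * 6 < p := by exact_mod_cast hi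
    linarith
  have := norm_sub_one_lt hlt
  convert this using 4
  push_cast
  ring

end Cfsg.Agent.Lib.CharArc
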