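import Cfsg.Agent.Lib.Blichfeldt.Small
import Mathlib.Analysis.InnerProductSpace.Projection.FiniteDimensional

/-!
Blichfeldt's sixty degree theorem: in an irreducible group generated by the conjugates of `x`, if
every eigenvalue of `x` is at distance less than one from the eigenvalue `a`, then `x` is scalar.
-/

set_option autoImplicit false
set_option linter.style.haveILetI false

open Module
open scoped ComplexConjugate

namespace Cfsg.Agent.Lib.CharArc

universe u

/-- A unitary model together with the comparison map. -/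
theorem exists_unitary_equiv {G : Type u} [Group G] [Fintype G] {n : ℕ}
    (ρ : Representation ℂ G (Fin n → ℂ)) :
    ∃ (E : Type u) (_ : NormedAddCommGroup E) (_ : InnerProductSpace ℂ E)
      (_ : FiniteDimensional ℂ E) (π : G →* (E →L[ℂ] E)) (e : (Fin n → ℂ) ≃ₗ[ℂ] E),
      (∀ g x, ‖π g x‖ = ‖x‖) ∧ ∀ g v, π g (e v) = e (ρ g v) := by
  let W := PiLp 2 (fun _ : G => EuclideanSpace ℂ (Fin n))
  let L : (Fin n → ℂ) →ₗ[ℂ] W :=
    { toFun := fun v => WithLp.toLp 2 fun g => WithLp.toLp 2 (ρ g v)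
      map_add' := fun a b => by simp only [map_add]; rfl
      map_smul' := fun c a => by simp only [map_smul]; rfl }
  have hL : Function.Injective L := by
    intro a b h
    have h1 := congrArg (fun w : W => WithLp.ofLp (w 1)) h
    simpa [L] using h1
  let e := LinearEquiv.ofInjective L hL
  let E := ↥(LinearMap.range L)
  let π : G →* (E →L[ℂ] E) :=
    { toFun := fun g => LinearMap.toContinuousLinearMap (e.toLinearMap ∘ₗ ρ g ∘ₗ e.symm.toLinearMap)
      map_one' := by ext x; simp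
      map_mul' := fun a b => by ext x; simp }
  have h1 : ∀ g v, π g (e v) = e (ρ g v) := fun g v => by simp [π]
  refine ⟨E, inferInstance, inferInstance, inferInstance, π, e, fun g x => ?_, h1⟩
  obtain ⟨v, rfl⟩ := e.surjective x
  rw [h1]
  show ‖L (ρ g v)‖ = ‖L v‖
  rw [PiLp.norm_eq_of_L2, PiLp.norm_eq_of_L2]
  congr 1
  refine Fintype.sum_equiv (Equiv.mulRight g) _ _ fun k => ?_
  simp [L]

variable {G : Type u} [Group G] [Finite G] {E : Type u} [NormedAddCommGroup E]
  [InnerProductSpace ℂ E] [FiniteDimensional ℂ E] {π : G →* (E →L[ℂ] E)}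

omit [Finite G] [FiniteDimensional ℂ E] in
lemma inv_apply (g : G) (v : E) : π g⁻¹ (π g v) = v := by
  rw [← ContinuousLinearMap.mul_apply, ← map_mul, inv_mul_cancel, map_one]
  rfl

omit [Finite G] [FiniteDimensional ℂ E] in
lemma apply_inv (g : G) (v : E) : π g (π g⁻¹ v) = v := by
  rw [← ContinuousLinearMap.mul_apply, ← map_mul, mul_inv_cancel, map_one]
  rfl

omit [Finite G] [FiniteDimensional ℂ E] in
lemma inner_pi (hπ : ∀ g x, ‖π g x‖ = ‖x‖) (g : G) (u v : E) :
    inner ℂ (π g u) (π g v) = inner ℂ u v :=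
  LinearIsometry.inner_map_map ⟨(π g : E →ₗ[ℂ] E), hπ g⟩ u v

/-- The eigenspace for `a`. -/
def fixA (π : G →* (E →L[ℂ] E)) (a : ℂ) (g : G) : Submodule ℂ E :=
  Module.End.eigenspace (π g : E →ₗ[ℂ] E) a

omit [Finite G] [FiniteDimensional ℂ E] in
lemma mem_fixA {a : ℂ} {g : G} {v : E} : v ∈ fixA π a g ↔ π g v = a • v :=
  Module.End.mem_eigenspace_iff

/-- Blichfeldt's sixty degree theorem. -/
theorem scalar_of_small (hπ : ∀ g x, ‖π g x‖ = ‖x‖)
    (hirr : ∀ W : Submodule ℂ E, (∀ g, ∀ w ∈ W, π g w ∈ W) → W = ⊥ ∨ W = ⊤)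
    {x : G} (hx : Subgroup.normalClosure ({x} : Set G) = ⊤) {a : ℂ} (ha : ‖a‖ = 1)
    {v₀ : E} (hv₀ : v₀ ≠ 0) (hxv₀ : π x v₀ = a • v₀) (hsmall : ‖π x - a • 1‖ < 1) :
    π x = a • 1 := by
  classical
  set Cl : Set G := {g | IsConj x g} with hCl
  have hconjN : ∀ S ∈ Cl, ‖π S - a • (1 : E →L[ℂ] E)‖ < 1 := by
    intro S hS
    obtain ⟨k, rfl⟩ := isConj_iff.mp hS
    refine lt_of_le_of_lt ?_ hsmall
    have e : π (k * x * k⁻¹) - a • (1 : E →L[ℂ] E) = π k * (π x - a • 1) * π k⁻¹ := by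
      rw [map_mul, map_mul, mul_sub, sub_mul, mul_smul_comm, smul_mul_assoc, mul_one, ← map_mul π k k⁻¹,
        mul_inv_cancel, map_one]
    rw [e]
    calc ‖π k * (π x - a • 1) * π k⁻¹‖ ≤ ‖π k‖ * ‖π x - a • 1‖ * ‖π k⁻¹‖ :=
          (norm_mul_le _ _).trans (mul_le_mul_of_nonneg_right (norm_mul_le _ _) (norm_nonneg _))
      _ ≤ 1 * ‖π x - a • 1‖ * 1 := by gcongr <;> exact Blichfeldt.norm_le_one hπ _
      _ = _ := by ring
  have hclosed : ∀ S ∈ Cl, ∀ g : G, g * S * g⁻¹ ∈ Cl := fun S hS g =>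
    IsConj.trans hS (isConj_iff.mpr ⟨g, rfl⟩)
  -- intersections of eigenspaces
  let P : Submodule ℂ E → Prop := fun U => U ≠ ⊥ ∧ (∃ S ∈ Cl, U ≤ fixA π a S) ∧
    ∀ v, (∀ S ∈ Cl, U ≤ fixA π a S → v ∈ fixA π a S) → v ∈ U
  have hne : ∃ U, P U := by
    refine ⟨fixA π a x, fun h => hv₀ ((Submodule.mem_bot ℂ).mp (h ▸ mem_fixA.mpr hxv₀)),
      ⟨x, IsConj.refl x, le_rfl⟩, fun v hv => hv x (IsConj.refl x) le_rfl⟩
  have hne' : ∃ d, ∃ U, P U ∧ finrank ℂ U = d := ⟨_, _, hne.choose_spec, rfl⟩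
  obtain ⟨U, hU, hUd⟩ := Nat.find_spec hne'
  have hmin : ∀ T ∈ Cl, U ⊓ fixA π a T = ⊥ ∨ U ≤ fixA π a T := by
    intro T hT
    refine or_iff_not_imp_left.mpr fun h => ?_
    obtain ⟨S₀, hS₀, hUS₀⟩ := hU.2.1
    have hP : P (U ⊓ fixA π a T) := ⟨h, ⟨T, hT, inf_le_right⟩, fun v hv => Submodule.mem_inf.mpr
      ⟨hU.2.2 v fun S hS hle => hv S hS (inf_le_left.trans hle), hv T hT inf_le_right⟩⟩
    have hle := Nat.find_min' hne' ⟨_, hP, rfl⟩
    rw [← hUd] at hle
    exact inf_eq_left.mp (Submodule.eq_of_le_of_finrank_le inf_le_left hle)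
  let b := stdOrthonormalBasis ℂ U
  let f : G → ℝ := fun T => ∑ i, ‖π T (b i : E) - a • (b i : E)‖ ^ 2
  have hspan : ∀ (L : E →ₗ[ℂ] E) (W : Submodule ℂ E), (∀ i, L (b i : E) ∈ W) → ∀ u ∈ U, L u ∈ W := by
    intro L W h u hu
    have e := congrArg (fun z : U => (z : E)) (b.sum_repr ⟨u, hu⟩)
    simp only [Submodule.coe_sum, Submodule.coe_smul] at e
    rw [← e, map_sum]
    exact Submodule.sum_mem _ fun i _ => by rw [map_smul]; exact W.smul_mem _ (h i)
  -- every conjugate stabilises `U`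
  have hstab : ∀ T ∈ Cl, ∀ u ∈ U, π T u ∈ U := by
    by_contra! hbad
    obtain ⟨T, ⟨hT, hTU⟩, hTmin⟩ := Set.exists_min_image
      {T : G | T ∈ Cl ∧ ∃ u ∈ U, π T u ∉ U} f (Set.toFinite _)
      (by obtain ⟨T, hT, u, hu, h⟩ := hbad; exact ⟨T, hT, u, hu, h⟩)
    have hWS : ∀ S ∈ Cl, U ≤ fixA π a S → ∀ u ∈ U, ∃ u' ∈ U, π S (π T u) = π T u' := by
      intro S hS hUS u hu
      refine ⟨π (T⁻¹ * S * T) u, ?_, by
        rw [map_mul, map_mul, ContinuousLinearMap.mul_apply, ContinuousLinearMap.mul_apply,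
          apply_inv]⟩
      have hT' : T⁻¹ * S * T ∈ Cl := by simpa using hclosed S hS T⁻¹
      by_contra hout
      have hle := hTmin _ ⟨hT', u, hu, hout⟩
      have hterm : ∀ i, ‖π (T⁻¹ * S * T) (b i : E) - a • (b i : E)‖ ≤
          ‖π S - a • (1 : E →L[ℂ] E)‖ * ‖π T (b i : E) - a • (b i : E)‖ := by
        intro i
        have hb : π S (b i : E) = a • (b i : E) := mem_fixA.mp (hUS (b i).2)
        calc ‖π (T⁻¹ * S * T) (b i : E) - a • (b i : E)‖
            = ‖π T (π (T⁻¹ * S * T) (b i : E) - a • (b i : E))‖ := (hπ _ _).symm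
          _ = ‖(π S - a • (1 : E →L[ℂ] E)) (π T (b i : E) - a • (b i : E))‖ := by
              congr 1
              rw [map_sub, map_mul, map_mul, ContinuousLinearMap.mul_apply,
                ContinuousLinearMap.mul_apply, apply_inv]
              simp [hb, smul_sub, sub_eq_add_neg, smul_smul]
          _ ≤ _ := ContinuousLinearMap.le_opNorm _ _
      set c := ‖π S - a • (1 : E →L[ℂ] E)‖ with hc
      have hc1 : c < 1 := hconjN S hS
      have hc0 : 0 ≤ c := norm_nonneg _
      have hfle : f (T⁻¹ * S * T) ≤ c ^ 2 * f T := by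
        simp only [f, Finset.mul_sum]
        refine Finset.sum_le_sum fun i _ => ?_
        rw [← mul_pow]
        exact pow_le_pow_left₀ (norm_nonneg _) (hterm i) 2
      have hfT : 0 < f T := by
        refine lt_of_le_of_ne (Finset.sum_nonneg fun i _ => sq_nonneg _) fun h0 => ?_
        obtain ⟨u', hu', hu''⟩ := hTU
        refine hu'' (hspan (π T : E →ₗ[ℂ] E) U (fun i => ?_) u' hu')
        have := (Finset.sum_eq_zero_iff_of_nonneg fun i _ => sq_nonneg _).mp h0.symm i (Finset.mem_univ i)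
        rw [sq_eq_zero_iff, norm_eq_zero, sub_eq_zero] at this
        show π T (b i : E) ∈ U
        rw [this]
        exact U.smul_mem _ (b i).2
      have : c ^ 2 * f T < f T := by
        have : c ^ 2 < 1 := by nlinarith
        nlinarith
      exact absurd (hfle.trans_lt this) (not_lt.mpr hle)
    obtain ⟨u₁, hu₁, hu₁'⟩ := hTU
    obtain ⟨S, hS, hUS, hSu⟩ : ∃ S ∈ Cl, U ≤ fixA π a S ∧ π T u₁ ∉ fixA π a S := by
      by_contra! h
      exact hu₁' (hU.2.2 _ fun S hS hle => h S hS hle)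
    have hcl2 : T⁻¹ * S * T ∈ Cl := by simpa using hclosed S hS T⁻¹
    have hbot : U ⊓ fixA π a (T⁻¹ * S * T) = ⊥ := by
      refine (hmin _ hcl2).resolve_right fun hle => hSu ?_
      have h := mem_fixA.mp (hle hu₁)
      rw [map_mul, map_mul, ContinuousLinearMap.mul_apply, ContinuousLinearMap.mul_apply] at h
      have h2 := congrArg (π T) h
      rw [apply_inv, map_smul] at h2
      exact mem_fixA.mpr h2
    let R : U →ₗ[ℂ] U :=
      LinearMap.codRestrict U ((((π (T⁻¹ * S * T)) : E →ₗ[ℂ] E) - a • LinearMap.id) ∘ₗ U.subtype)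
        (fun u => by
          obtain ⟨u', hu', he⟩ := hWS S hS hUS u u.2
          have h1 : π (T⁻¹ * S * T) (u : E) = u' := by
            rw [map_mul, map_mul, ContinuousLinearMap.mul_apply, ContinuousLinearMap.mul_apply, he,
              inv_apply]
          show π (T⁻¹ * S * T) (u : E) - a • (u : E) ∈ U
          rw [h1]
          exact U.sub_mem hu' (U.smul_mem _ u.2))
    have hR : Function.Injective R := by
      rw [injective_iff_map_eq_zero]
      intro u hu
      have h1 : π (T⁻¹ * S * T) (u : E) - a • (u : E) = 0 := congrArg Subtype.val hu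
      have : (u : E) ∈ U ⊓ fixA π a (T⁻¹ * S * T) :=
        Submodule.mem_inf.mpr ⟨u.2, mem_fixA.mpr (sub_eq_zero.mp h1)⟩
      rw [hbot, Submodule.mem_bot] at this
      exact Subtype.ext this
    have horth : ∀ u ∈ U, ∀ u' ∈ U, inner ℂ u (π T u') = (0 : ℂ) := by
      intro u hu u' hu'
      obtain ⟨w, hw⟩ := (LinearMap.injective_iff_surjective.mp hR) ⟨u', hu'⟩
      have h1 : π (T⁻¹ * S * T) (w : E) - a • (w : E) = u' := congrArg Subtype.val hw
      rw [← h1, map_sub, map_mul, map_mul, ContinuousLinearMap.mul_apply,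
        ContinuousLinearMap.mul_apply, apply_inv, map_smul, inner_sub_right, inner_smul_right]
      have h2 := inner_pi hπ S u (π T w)
      rw [mem_fixA.mp (hUS hu), inner_smul_left] at h2
      have haa : a * conj a = 1 := by
        rw [Complex.mul_conj, Complex.normSq_eq_norm_sq, ha]; norm_num
      linear_combination (a : ℂ) * h2 - inner ℂ u (π S (π T (w : E))) * haa
    obtain ⟨u, hu, hu0⟩ := Submodule.exists_mem_ne_zero_of_ne_bot hU.1
    have h1 : ‖π T u - a • u‖ ≤ ‖π T - a • (1 : E →L[ℂ] E)‖ * ‖u‖ := by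
      have := (π T - a • (1 : E →L[ℂ] E)).le_opNorm u
      simpa using this
    have h2 : ‖π T u - a • u‖ ^ 2 = 2 * ‖u‖ ^ 2 := by
      have h0 : inner ℂ (π T u) (a • u) = (0 : ℂ) := by
        rw [inner_smul_right, ← inner_conj_symm, horth u hu u hu, map_zero, mul_zero]
      rw [@norm_sub_sq ℂ, h0, hπ, norm_smul, ha, one_mul, map_zero]
      ring
    have hu' : 0 < ‖u‖ := norm_pos_iff.mpr hu0
    have hlt := hconjN T hT
    have h3 : ‖π T u - a • u‖ < ‖u‖ := h1.trans_lt (mul_lt_of_lt_one_left hu' hlt)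
    nlinarith [norm_nonneg (π T u - a • u)]
  -- conclusion
  let H : Submonoid G :=
    { carrier := {g | ∀ u ∈ U, π g u ∈ U}
      one_mem' := fun u hu => by rw [map_one]; exact hu
      mul_mem' := fun hg hh u hu => by
        rw [map_mul, ContinuousLinearMap.mul_apply]; exact hg _ (hh _ hu) }
  have hall : ∀ g : G, g ∈ H := by
    intro g
    have hg : g ∈ Subgroup.normalClosure ({x} : Set G) := hx ▸ Subgroup.mem_top g
    unfold Subgroup.normalClosure at hg
    refine Subgroup.closure_induction (p := fun g _ => g ∈ H) ?_ H.one_mem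
      (fun _ _ _ _ h h' => H.mul_mem h h') (fun g _ h => ?_) hg
    · intro y hy
      rw [Group.mem_conjugatesOfSet_iff] at hy
      obtain ⟨z, rfl, hz⟩ := hy
      exact hstab y hz
    · have hg1 : g⁻¹ = g ^ (orderOf g - 1) := by
        refine inv_eq_of_mul_eq_one_left ?_
        rw [← pow_succ, Nat.sub_add_cancel (orderOf_pos g), pow_orderOf_eq_one]
      rw [hg1]
      exact H.pow_mem h _
  have htop : U = ⊤ := (hirr U fun g w hw => hall g w hw).resolve_left hU.1
  obtain ⟨S, hS, hUS⟩ := hU.2.1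
  obtain ⟨k, rfl⟩ := isConj_iff.mp hS
  ext v
  have := mem_fixA.mp (hUS (htop ▸ Submodule.mem_top : π k v ∈ U))
  rw [map_mul, map_mul, ContinuousLinearMap.mul_apply, ContinuousLinearMap.mul_apply,
    inv_apply] at this
  have h2 := congrArg (π k⁻¹) this
  rw [inv_apply, map_smul, inv_apply] at h2
  simpa using h2

end Cfsg.Agent.Lib.CharArc
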